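import Cfsg.Agent.H287.OC.D4Defs
import Cfsg.Agent.BpExc.FamTwSix

/-!
# S4891 (R12), piece P2: the triality of `D₄(K)` (helper993)
-/

set_option autoImplicit false

open Cfsg Cfsg.Lie

namespace Cfsg.Agent.H993.OC.Tri

open CoxeterSystem Cfsg.Agent.ChevalleyStructure.CoxeterGeom Cfsg.Agent.Tits.Roots Cfsg.Agent.Tits.Core
  Cfsg.Agent.Nodes.Reps Cfsg.Agent.Nodes.BNOf Cfsg.Agent.Nodes.StabComb Cfsg.Agent.Nodes.Bruhat
  Cfsg.Agent.Nodes.LeviDec Cfsg.Agent.Nodes.RGDChev Cfsg.Agent.ChevalleyStructure.CoxeterGeomTypes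
  Cfsg.Agent.KFacts.RgdAut Cfsg.Agent.KFacts.RgdDiag Cfsg.Agent.KFacts.RgdChevCoord
open Cfsg.Agent.ChevalleyStructure Cfsg.Agent.ChevalleyStructure.Elts
  Cfsg.Agent.ChevalleyStructure.NPerm Cfsg.Agent.ChevalleyStructure.SignedSymm Cfsg.Agent.BpExc.FamTw.Gr
open Cfsg.Agent.ChevalleyStructure.GraphSymm (symmD4a)
open Cfsg.Agent.H287.OC

universe u

variable {K : Type u} [Field K]

theorem mem_XX {r : ℕ} (hr : r < chevD4.nroots) (y : ↥(chevD4.group K)) :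
    y ∈ XX chevD4 4 K (vec chevD4 4 r) ↔ ∃ t : K, (y : GL chevD4.Idx K) = xG hp4.inList r t := by
  show (y : GL chevD4.Idx K) ∈ XV chevD4 4 K (vec chevD4 4 r) ↔ _
  rw [XV_vec hp4 _ hr, mem_rootSubgroup_iff hp4.inList]

theorem gr_mem_XX (r : Fin chevD4.nroots) (y : ↥(chevD4.group K)) :
    gr hp4.inList symmD4a y ∈ XX chevD4 4 K (vec chevD4 4 (symmD4a.σ r).val) ↔ y ∈ XX chevD4 4 K (vec chevD4 4 r.val) := by
  rw [mem_XX (symmD4a.σ r).2, mem_XX r.2]
  constructor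
  · rintro ⟨t, ht⟩
    refine ⟨((symmD4a.ε r : ℤ) : K) * t, ?_⟩
    have h1 := P_xG (L := K) hp4.inList symmD4a r (((symmD4a.ε r : ℤ) : K) * t)
    rw [← mul_assoc, symmD4a.ε_sq', one_mul, ← ht, coe_gr] at h1
    exact (mul_left_cancel (mul_right_cancel h1)).symm
  · rintro ⟨t, ht⟩
    exact ⟨((symmD4a.ε r : ℤ) : K) * t, by rw [coe_gr, ht, P_xG]⟩

theorem vecPerm : ∀ (r : Fin chevD4.nroots) (i : Fin 4), vec chevD4 4 (symmD4a.σ r).val i =
    vec chevD4 4 r.val (rot.symm i) := by decide +kernel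

theorem vec_sig (r : Fin chevD4.nroots) : vec chevD4 4 (symmD4a.σ r).val = vec chevD4 4 r.val ∘ rot.symm :=
  funext fun i => vecPerm r i

theorem simple_lt4 : ∀ i : Fin 4, chevD4.simple i < chevD4.nroots := by decide +kernel

theorem simple_map4 : ∀ i : Fin 4, (symmD4a.σ ⟨chevD4.simple i, simple_lt4 i⟩).val =
    chevD4.simple ((![2, 1, 3, 0] : Fin 4 → Fin 4) i) := by decide +kernel

theorem simple_eps4 : ∀ i : Fin 4, symmD4a.ε ⟨chevD4.simple i, simple_lt4 i⟩ = 1 := by decide +kernel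

theorem onSimple4 : OnSimple chevD4 4 symmD4a ![2, 1, 3, 0] where
  map i := ⟨simple_lt4 i, simple_map4 i, simple_eps4 i⟩
  surj := by decide

theorem gr_cube4 : gr (L := K) hp4.inList symmD4a ^ 3 = 1 := gr_cube hp4.inList symmD4a (by decide +kernel)

theorem gr_root {r : Fin 4 → ℤ} (hr : IsRoot cs4 hp4.isCartan r) (y : ↥(chevD4.group K)) :
    gr hp4.inList symmD4a y ∈ X4 K (r ∘ rot.symm) ↔ y ∈ X4 K r := by
  obtain ⟨s, hs, rfl⟩ := (isRoot_iff hp4 cs4 r).1 hr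
  rw [← vec_sig ⟨s, hs⟩]
  exact gr_mem_XX ⟨s, hs⟩ y

theorem sr_rot : ∀ i : Fin 4, (sr i ∘ rot.symm : Fin 4 → ℤ) = sr (rot i) := by decide

/-- **(P2)** -/
theorem exists_triality (K : Type u) [Field K] : ∃ τ : MulAut ↥(chevD4.group K), τ ^ 3 = 1 ∧ Fix τ (U4 K) ∧
    Diag (T4 K) (X4 K) τ rot := by
  refine ⟨gr hp4.inList symmD4a, gr_cube4, ?_, ?_, ?_, ?_⟩
  · have hle : ∀ y ∈ U4 K, gr (L := K) hp4.inList symmD4a y ∈ U4 K := by
      have h1 : U4 K ≤ (U4 K).comap (gr (L := K) hp4.inList symmD4a).toMonoidHom := by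
        refine RGD.Sup_le fun r hr y hy => ?_
        have h2 := (gr_root hr.1 y).2 hy
        have h3 : r ∘ rot.symm ∈ RGD.Pos cs4 hp4.isCartan := by
          obtain ⟨s, hs, rfl⟩ := (isRoot_iff hp4 cs4 r).1 hr.1
          refine ⟨?_, fun i => hr.2 (rot.symm i)⟩
          rw [← vec_sig ⟨s, hs⟩]
          exact isRoot_vec hp4 cs4 (symmD4a.σ ⟨s, hs⟩).2
        exact RGD.le_Sup h3 h2
      exact fun y hy => h1 hy
    intro y
    refine ⟨fun h => ?_, hle y⟩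
    have h2 := hle _ (hle _ h)
    have h3 : gr (L := K) hp4.inList symmD4a (gr hp4.inList symmD4a (gr hp4.inList symmD4a y)) =
        (gr (L := K) hp4.inList symmD4a ^ 3) y := by
      rw [pow_succ, pow_two, MulAut.mul_apply, MulAut.mul_apply]
    rw [h3, gr_cube4] at h2
    exact h2
  · intro t
    refine ⟨fun ht => ?_, fun ht => gr_TT hp4 onSimple4 ht⟩
    have h2 := gr_TT hp4 onSimple4 (gr_TT hp4 onSimple4 ht)
    have h3 : gr (L := K) hp4.inList symmD4a (gr hp4.inList symmD4a (gr hp4.inList symmD4a t)) =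
        (gr (L := K) hp4.inList symmD4a ^ 3) t := by
      rw [pow_succ, pow_two, MulAut.mul_apply, MulAut.mul_apply]
    rw [h3, gr_cube4] at h2
    exact h2
  · intro i y
    rw [← sr_rot]
    exact gr_root (isRoot_sr _ _ i) y
  · intro i y
    have h1 : (-sr (rot i) : Fin 4 → ℤ) = (-sr i) ∘ rot.symm := by
      rw [← sr_rot]
      rfl
    rw [h1]
    exact gr_root (isRoot_sr _ _ i).neg y

end Cfsg.Agent.H993.OC.Tri
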